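import Cfsg.Agent.GeoLib.OmegaRoots
import Cfsg.Agent.Forms.AltRank
import Cfsg.Agent.SpGeom.Order

set_option autoImplicit false

/-! Elements of the plus-type orthogonal group in characteristic two and nonsingular points. -/

namespace CfsgLib.NonsingPoint

open Matrix QuadraticMap CfsgLib.Forms
open scoped commutatorElement

variable {F : Type*} [Field F] {d : ℕ}

local notation "V" => (Fin d ⊕ Fin d → F)

theorem quad_dot (v : V) :
    Cfsg.quadFormPlus d F v = (fun i => v (Sum.inl i)) ⬝ᵥ (fun i => v (Sum.inr i)) := rfl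

theorem quad_smul (c : F) (v : V) :
    Cfsg.quadFormPlus d F (c • v) = c * c * Cfsg.quadFormPlus d F v := by
  simp only [Cfsg.quadFormPlus, Pi.smul_apply, smul_eq_mul, Finset.mul_sum]
  exact Finset.sum_congr rfl fun i _ => by ring

theorem mem_isometry {g : GL (Fin d ⊕ Fin d) F}
    (h : ∀ v, Cfsg.quadFormPlus d F ((g : Matrix (Fin d ⊕ Fin d) (Fin d ⊕ Fin d) F) *ᵥ v) =
      Cfsg.quadFormPlus d F v) :
    g ∈ Cfsg.isometryGroup F (Cfsg.quadFormPlus d F) := fun u _ => h u

/-- The Levi element of `A`. -/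
def levi (A : GL (Fin d) F) : GL (Fin d ⊕ Fin d) F where
  val := fromBlocks (A : Matrix (Fin d) (Fin d) F) 0 0 ((A⁻¹ : GL (Fin d) F) : Matrix (Fin d) (Fin d) F)ᵀ
  inv := fromBlocks ((A⁻¹ : GL (Fin d) F) : Matrix (Fin d) (Fin d) F) 0 0 (A : Matrix (Fin d) (Fin d) F)ᵀ
  val_inv := by
    rw [fromBlocks_multiply, ← transpose_mul]
    simp
  inv_val := by
    rw [fromBlocks_multiply, ← transpose_mul]
    simp

theorem coe_levi (A : GL (Fin d) F) : (levi A : Matrix (Fin d ⊕ Fin d) (Fin d ⊕ Fin d) F) =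
    fromBlocks (A : Matrix (Fin d) (Fin d) F) 0 0 ((A⁻¹ : GL (Fin d) F) : Matrix (Fin d) (Fin d) F)ᵀ :=
  rfl

theorem levi_mul (A B : GL (Fin d) F) : levi (A * B) = levi A * levi B := by
  apply Units.ext
  rw [Units.val_mul, coe_levi, coe_levi, coe_levi, fromBlocks_multiply, ← transpose_mul, _root_.mul_inv_rev]
  simp

theorem levi_one : levi (1 : GL (Fin d) F) = 1 := by
  apply Units.ext
  rw [coe_levi]
  simp

theorem levi_pow (A : GL (Fin d) F) (n : ℕ) : levi A ^ n = levi (A ^ n) := by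
  induction n with
  | zero => rw [pow_zero, pow_zero, levi_one]
  | succ n ih => rw [pow_succ, pow_succ, levi_mul, ih]

theorem levi_mulVec (A : GL (Fin d) F) (v : V) :
    (levi A : Matrix (Fin d ⊕ Fin d) (Fin d ⊕ Fin d) F) *ᵥ v =
      Sum.elim ((A : Matrix (Fin d) (Fin d) F) *ᵥ (v ∘ Sum.inl))
        (((A⁻¹ : GL (Fin d) F) : Matrix (Fin d) (Fin d) F)ᵀ *ᵥ (v ∘ Sum.inr)) := by
  rw [coe_levi, fromBlocks_mulVec]
  simp

theorem levi_isometry (A : GL (Fin d) F) : levi A ∈ Cfsg.isometryGroup F (Cfsg.quadFormPlus d F) := by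
  refine mem_isometry fun v => ?_
  rw [levi_mulVec, quad_dot, quad_dot]
  simp only [Sum.elim_inl, Sum.elim_inr]
  show ((A : Matrix (Fin d) (Fin d) F) *ᵥ (v ∘ Sum.inl)) ⬝ᵥ
    (((A⁻¹ : GL (Fin d) F) : Matrix (Fin d) (Fin d) F)ᵀ *ᵥ (v ∘ Sum.inr)) = _
  rw [mulVec_transpose, dotProduct_comm, ← dotProduct_mulVec, mulVec_mulVec, ← Units.val_mul,
    inv_mul_cancel, Units.val_one, one_mulVec, dotProduct_comm]
  rfl

/-- A square of an isometry lies in `Ω` in characteristic two. -/
theorem sq_mem_omega [Finite F] (hd : 3 ≤ d) (h2 : ringChar F = 2) {g : GL (Fin d ⊕ Fin d) F}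
    (hg : g ∈ Cfsg.isometryGroup F (Cfsg.quadFormPlus d F)) :
    g * g ∈ Cfsg.Geo.omegaGL (Cfsg.quadFormPlus d F) := by
  classical
  have key : ∀ g ∈ Cfsg.isometryGroup F ⇑(quadPlus F d),
      g * g ∈ Cfsg.Geo.omegaGL ⇑(quadPlus F d) := by
    intro g hg
    have hQ := nondegenerate_quadPlus (F := F) d
    have hh : Nat.card F ≠ 2 ∨ Fintype.card (Fin d ⊕ Fin d) ≠ 4 := Or.inr (by simp; omega)
    obtain ⟨l, hl⟩ := exists_list hQ hh ⟨g, hg⟩
    refine mem_omegaGL.2 ⟨⟨g, hg⟩ * ⟨g, hg⟩, (mem_Omega_of_list hQ hh (l := l ++ l) ?_).2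
      ⟨by rw [List.length_append]; exact Even.add_self _, FiniteField.isSquare_of_char_two h2 _⟩, rfl⟩
    rw [map_mul, hl]
    exact Subtype.ext (LinearEquiv.ext fun v => by
      show reflProd _ l (reflProd _ l v) = reflProd _ (l ++ l) v
      rw [reflProd_append]; rfl)
  rw [coe_quadPlus] at key
  exact key g hg

/-- An element of odd order preserving the form lies in `Ω`. -/
theorem mem_omega_of_pow_odd [Finite F] (hd : 3 ≤ d) (h2 : ringChar F = 2)
    {g : GL (Fin d ⊕ Fin d) F} (hg : g ∈ Cfsg.isometryGroup F (Cfsg.quadFormPlus d F)) {s : ℕ}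
    (h : g ^ (2 * s + 1) = 1) : g ∈ Cfsg.Geo.omegaGL (Cfsg.quadFormPlus d F) := by
  have := sq_mem_omega hd h2 (pow_mem hg (s + 1))
  rwa [← pow_add, show s + 1 + (s + 1) = (2 * s + 1) + 1 by ring, pow_succ, h, one_mul] at this

/-- A unipotent element of the Siegel parabolic. -/
def unip (S : Matrix (Fin d) (Fin d) F) : GL (Fin d ⊕ Fin d) F where
  val := fromBlocks 1 S 0 1
  inv := fromBlocks 1 (-S) 0 1
  val_inv := by rw [fromBlocks_multiply]; simp
  inv_val := by rw [fromBlocks_multiply]; simp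

theorem coe_unip (S : Matrix (Fin d) (Fin d) F) :
    (unip S : Matrix (Fin d ⊕ Fin d) (Fin d ⊕ Fin d) F) = fromBlocks 1 S 0 1 := rfl

theorem unip_add (S T : Matrix (Fin d) (Fin d) F) : unip (S + T) = unip S * unip T := by
  apply Units.ext
  rw [Units.val_mul, coe_unip, coe_unip, coe_unip, fromBlocks_multiply]
  simp [add_comm]

theorem unip_zero : unip (0 : Matrix (Fin d) (Fin d) F) = 1 := by
  apply Units.ext
  rw [coe_unip]
  simp

theorem unip_mulVec (S : Matrix (Fin d) (Fin d) F) (v : V) :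
    (unip S : Matrix (Fin d ⊕ Fin d) (Fin d ⊕ Fin d) F) *ᵥ v =
      Sum.elim (v ∘ Sum.inl + S *ᵥ (v ∘ Sum.inr)) (v ∘ Sum.inr) := by
  rw [coe_unip, fromBlocks_mulVec]
  simp

theorem unip_isometry {S : Matrix (Fin d) (Fin d) F} (hS : ∀ y, (S *ᵥ y) ⬝ᵥ y = 0) :
    unip S ∈ Cfsg.isometryGroup F (Cfsg.quadFormPlus d F) := by
  refine mem_isometry fun v => ?_
  rw [unip_mulVec, quad_dot, quad_dot]
  simp only [Sum.elim_inl, Sum.elim_inr]
  show (v ∘ Sum.inl + S *ᵥ (v ∘ Sum.inr)) ⬝ᵥ (v ∘ Sum.inr) = _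
  rw [add_dotProduct, hS, add_zero]
  rfl

/-- The elementary alternating matrix. -/
def pairMat (i j : Fin d) : Matrix (Fin d) (Fin d) F := Matrix.single i j 1 + Matrix.single j i 1

theorem pairMat_mulVec (i j : Fin d) (y : Fin d → F) :
    (pairMat i j : Matrix (Fin d) (Fin d) F) *ᵥ y = Pi.single i (y j) + Pi.single j (y i) := by
  rw [pairMat, add_mulVec]
  congr 1 <;>
  · funext a
    simp [Matrix.mulVec, dotProduct, Matrix.single, Pi.single_apply, ite_and, eq_comm]

theorem pairMat_dot (h2 : (2 : F) = 0) (i j : Fin d) (y : Fin d → F) :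
    ((pairMat i j : Matrix (Fin d) (Fin d) F) *ᵥ y) ⬝ᵥ y = 0 := by
  rw [pairMat_mulVec, add_dotProduct, single_dotProduct, single_dotProduct]
  linear_combination (y i * y j) * h2

theorem unip_pair_mem [Finite F] (h2 : (2 : F) = 0) {i j k : Fin d}
    (hij : i ≠ j) (hik : i ≠ k) (hjk : j ≠ k) :
    unip (pairMat i j : Matrix (Fin d) (Fin d) F) ∈ Cfsg.Geo.omegaGL (Cfsg.quadFormPlus d F) := by
  classical
  have htt : transvection i k (1 : F) * transvection i k 1 = 1 := by
    rw [transvection_mul_transvection_same i k hik, one_add_one_eq_two, h2, transvection_zero]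
  obtain ⟨A, hA⟩ : ∃ A : GL (Fin d) F, (A : Matrix (Fin d) (Fin d) F) = transvection i k 1 :=
    ⟨⟨_, _, htt, htt⟩, rfl⟩
  have hAA : A * A = 1 := Units.ext (by rw [Units.val_mul, hA, htt]; rfl)
  have hAinv : A⁻¹ = A := inv_eq_of_mul_eq_one_right hAA
  obtain ⟨T, hT⟩ : ∃ T : Matrix (Fin d) (Fin d) F, T = pairMat k j := ⟨_, rfl⟩
  have hTT : unip T * unip T = 1 := by
    rw [← unip_add, show T + T = 0 by
      rw [← two_smul F T, h2, zero_smul], unip_zero]
  have hUinv : (unip T)⁻¹ = unip T := inv_eq_of_mul_eq_one_right hTT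
  have hLinv : (levi A)⁻¹ = levi A :=
    inv_eq_of_mul_eq_one_right (by rw [← levi_mul, hAA, levi_one])
  have key : ⁅levi A, unip T⁆ = unip (pairMat i j) := by
    rw [commutatorElement_def, hLinv, hUinv]
    have h1 : levi A * unip T * levi A =
        unip ((A : Matrix (Fin d) (Fin d) F) * T * (A : Matrix (Fin d) (Fin d) F)ᵀ) := by
      apply Units.ext
      rw [Units.val_mul, Units.val_mul, coe_levi, coe_unip, coe_unip, hAinv, fromBlocks_multiply,
        fromBlocks_multiply]
      simp [hA, htt, ← transpose_mul, Matrix.mul_assoc]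
    rw [h1, ← unip_add, hA, hT]
    congr 1
    ext a b
    simp [pairMat, transvection, Matrix.add_mul, Matrix.mul_add, Matrix.single_mul_single_of_ne,
      hik.symm, hij, hij.symm, hik, hjk, hjk.symm]
    linear_combination (Matrix.single k j (1 : F) a b + Matrix.single j k (1 : F) a b) * h2
  rw [← key]
  refine mem_omegaGL.2 ⟨⁅(⟨levi A, levi_isometry A⟩ : Cfsg.isometryGroup F (Cfsg.quadFormPlus d F)),
    ⟨unip T, unip_isometry (hT ▸ pairMat_dot h2 k j)⟩⁆, ?_, rfl⟩
  exact Subgroup.commutator_mem_commutator (Subgroup.mem_top _) (Subgroup.mem_top _)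

/-- The number of vectors of non-zero value. -/
theorem card_nonsingular [Fintype F] :
    Nat.card {v : V // Cfsg.quadFormPlus d F v ≠ 0} * Fintype.card F =
      (Fintype.card F ^ d - 1) * (Fintype.card F ^ d * (Fintype.card F - 1)) := by
  classical
  let e : {v : V // Cfsg.quadFormPlus d F v ≠ 0} ≃
      Σ x : {x : Fin d → F // x ≠ 0}, {y : Fin d → F // x.1 ⬝ᵥ y ≠ 0} :=
    { toFun := fun v => ⟨⟨v.1 ∘ Sum.inl, fun h => v.2 (by
        show (v.1 ∘ Sum.inl) ⬝ᵥ (v.1 ∘ Sum.inr) = 0
        rw [h, zero_dotProduct])⟩, ⟨v.1 ∘ Sum.inr, v.2⟩⟩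
      invFun := fun p => ⟨Sum.elim p.1.1 p.2.1, p.2.2⟩
      left_inv := fun v => Subtype.ext (Sum.elim_comp_inl_inr v.1)
      right_inv := fun p => rfl }
  have hfib : ∀ x : {x : Fin d → F // x ≠ 0},
      Nat.card {y : Fin d → F // x.1 ⬝ᵥ y ≠ 0} * Fintype.card F =
        Fintype.card F ^ d * (Fintype.card F - 1) := by
    intro x
    let φ : (Fin d → F) →ₗ[F] F :=
      { toFun := fun y => x.1 ⬝ᵥ y
        map_add' := fun a b => dotProduct_add _ _ _
        map_smul' := fun c a => dotProduct_smul c _ _ }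
    have hφ : φ ≠ 0 := fun h => x.2 (dotProduct_eq_zero _ fun w => LinearMap.congr_fun h w)
    have h1 := CfsgLib.SpGeom.card_linear_fibre φ hφ 0
    have hV : Nat.card (Fin d → F) = Fintype.card F ^ d := by
      rw [Nat.card_fun, Nat.card_fin, Nat.card_eq_fintype_card]
    rw [hV] at h1
    have h2 : Nat.card {y : Fin d → F // x.1 ⬝ᵥ y = 0} + Nat.card {y : Fin d → F // x.1 ⬝ᵥ y ≠ 0} =
        Fintype.card F ^ d := by
      rw [← Nat.card_sum, Nat.card_congr (Equiv.sumCompl _), hV]
    have h3 : Nat.card {y : Fin d → F // x.1 ⬝ᵥ y = 0} * Fintype.card F = Fintype.card F ^ d := h1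
    rw [Nat.mul_sub_one]
    apply Nat.eq_sub_of_add_eq
    calc _ = (Nat.card {y : Fin d → F // x.1 ⬝ᵥ y = 0} +
          Nat.card {y : Fin d → F // x.1 ⬝ᵥ y ≠ 0}) * Fintype.card F := by rw [add_mul, h3]; ring
      _ = _ := by rw [h2]
  rw [Nat.card_congr e, Nat.card_sigma, Finset.sum_mul, Finset.sum_congr rfl fun x _ => hfib x,
    Finset.sum_const, Finset.card_univ, smul_eq_mul]
  congr 1
  rw [Fintype.card_subtype_compl, Fintype.card_subtype_eq, Fintype.card_fun, Fintype.card_fin]

/-- The number of nonsingular points divides `q^(d-1) (q^d - 1)`. -/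
theorem card_points [Fintype F] :
    Nat.card {W : Submodule F V // Module.finrank F ↥W = 1 ∧ ∃ v ∈ W, Cfsg.quadFormPlus d F v ≠ 0} *
      Fintype.card F = (Fintype.card F ^ d - 1) * Fintype.card F ^ d := by
  classical
  set P := {W : Submodule F V // Module.finrank F ↥W = 1 ∧ ∃ v ∈ W, Cfsg.quadFormPlus d F v ≠ 0}
  have hq : 1 < Fintype.card F := Fintype.one_lt_card
  let toP : {v : V // Cfsg.quadFormPlus d F v ≠ 0} → P := fun v =>
    ⟨Submodule.span F {v.1}, finrank_span_singleton (fun h => v.2 (by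
      rw [h, ← zero_smul F (0 : V), quad_smul]; simp)),
      v.1, Submodule.mem_span_singleton_self _, v.2⟩
  have hfib : ∀ W : P, Nat.card {v // toP v = W} = Fintype.card F - 1 := by
    rintro ⟨W, hW, v0, hv0, hQ⟩
    have hspan : ∀ v ∈ W, ∃ c : F, c • v0 = v := fun v hv => by
      obtain ⟨c, hc⟩ := (finrank_eq_one_iff_of_nonzero' (⟨v0, hv0⟩ : W)
        (fun h => hQ (by
          have h' : v0 = 0 := congrArg Subtype.val h
          rw [h', ← zero_smul F (0 : V), quad_smul]; simp))).1 hW ⟨v, hv⟩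
      exact ⟨c, congrArg Subtype.val hc⟩
    have hv00 : v0 ≠ 0 := fun h => hQ (by rw [h, ← zero_smul F (0 : V), quad_smul]; simp)
    let g : {c : F // c ≠ 0} → {v // toP v = ⟨W, hW, v0, hv0, hQ⟩} := fun c =>
      ⟨⟨c.1 • v0, by rw [quad_smul]; exact mul_ne_zero (mul_ne_zero c.2 c.2) hQ⟩, Subtype.ext (by
        show Submodule.span F {c.1 • v0} = W
        rw [Submodule.span_singleton_smul_eq (isUnit_iff_ne_zero.2 c.2)]
        refine le_antisymm ((Submodule.span_singleton_le_iff_mem _ _).2 hv0) fun v hv => ?_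
        obtain ⟨a, rfl⟩ := hspan v hv
        exact Submodule.smul_mem _ _ (Submodule.mem_span_singleton_self v0))⟩
    have hg : Function.Bijective g := by
      constructor
      · intro a b h
        refine Subtype.ext (smul_left_injective F hv00 ?_)
        exact congrArg (fun t : {v // toP v = (⟨W, hW, v0, hv0, hQ⟩ : P)} => (t.1 : V)) h
      · rintro ⟨⟨v, hv⟩, hvW⟩
        have : v ∈ W := by
          have h := congrArg Subtype.val hvW
          exact h.le (Submodule.mem_span_singleton_self v)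
        obtain ⟨c, rfl⟩ := hspan v this
        refine ⟨⟨c, fun h => hv (by rw [h, quad_smul]; simp)⟩, rfl⟩
    rw [← Nat.card_congr (Equiv.ofBijective g hg), Nat.card_eq_fintype_card, Fintype.card_subtype_compl,
      Fintype.card_subtype_eq]
  have hcount := card_nonsingular (F := F) (d := d)
  rw [← Nat.card_congr (Equiv.sigmaFiberEquiv toP)] at hcount
  haveI : Fintype P := Fintype.ofFinite P
  rw [Nat.card_sigma, Finset.sum_congr rfl fun W _ => hfib W, Finset.sum_const, Finset.card_univ,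
    ← Nat.card_eq_fintype_card, smul_eq_mul] at hcount
  refine Nat.eq_of_mul_eq_mul_right (show 0 < Fintype.card F - 1 by omega) ?_
  linarith [hcount]

/-- For odd `d` an orthogonal involution fixes a nonsingular vector. -/
theorem exists_fixed_of_odd [Finite F] (h2 : (2 : F) = 0) (hd : Odd d) (T : V →ₗ[F] V)
    (hT : ∀ v, Cfsg.quadFormPlus d F (T v) = Cfsg.quadFormPlus d F v) (hTT : ∀ v, T (T v) = v) :
    ∃ v, T v = v ∧ Cfsg.quadFormPlus d F v ≠ 0 := by
  classical
  by_contra hcon
  push Not at hcon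
  let Q := quadPlus F d
  have hQe : ∀ v, Q v = Cfsg.quadFormPlus d F v := fun v => by rw [← coe_quadPlus]
  set N := T - 1 with hN
  set C := LinearMap.ker N with hC
  have hCmem : ∀ v, v ∈ C ↔ T v = v := fun v => by
    rw [hC, LinearMap.mem_ker, hN, LinearMap.sub_apply, Module.End.one_apply, sub_eq_zero]
  have hQC : ∀ v ∈ C, Q v = 0 := fun v hv => (hQe v).trans (hcon v ((hCmem v).1 hv))
  have hfC : ∀ a ∈ C, ∀ b ∈ C, polar Q a b = 0 := fun a ha b hb => by
    rw [polar, hQC _ (add_mem ha hb), hQC a ha, hQC b hb]; ring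
  have himg : ∀ v, N v ∈ C := fun v => by
    rw [hCmem, hN, LinearMap.sub_apply, Module.End.one_apply, map_sub, hTT]
    calc v - T v = T v - v + (2 : F) • (v - T v) := by rw [two_smul]; abel
      _ = T v - v := by rw [h2, zero_smul, add_zero]
  -- `C` is totally singular, hence of dimension `d`
  have hle : Module.finrank F C ≤ d := by
    have h1 : C ≤ perp Q C := fun a ha => mem_perp.2 fun b hb => hfC a ha b hb
    have h4 := finrank_perp (nondegenerate_quadPlus (F := F) d) C
    have h5 := Submodule.finrank_mono h1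
    rw [Module.finrank_fintype_fun_eq_card, Fintype.card_sum, Fintype.card_fin] at h4
    change Module.finrank F C ≤ Module.finrank F (perp (quadPlus F d) C) at h5
    omega
  have hge : d ≤ Module.finrank F C := by
    have h1 := LinearMap.finrank_range_add_finrank_ker N
    rw [Module.finrank_fintype_fun_eq_card, Fintype.card_sum, Fintype.card_fin] at h1
    have h3 := Submodule.finrank_mono (fun x (hx : x ∈ LinearMap.range N) => by
      obtain ⟨v, rfl⟩ := hx; exact himg v : LinearMap.range N ≤ C)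
    rw [← hC] at h1
    omega
  -- the form `(v, w) ↦ f (v, N w)` is alternating of rank `d`
  let M : Matrix (Fin d ⊕ Fin d) (Fin d ⊕ Fin d) F :=
    LinearMap.toMatrix₂' F ((polarBilin Q).compl₂ N)
  have hM : ∀ v w, v ⬝ᵥ (M *ᵥ w) = polar Q v (N w) := fun v w => by
    rw [← Matrix.toLinearMap₂'_apply', Matrix.toLinearMap₂'_toMatrix']
    rfl
  have halt : ∀ v, v ⬝ᵥ (M *ᵥ v) = 0 := by
    intro v
    rw [hM, hN, LinearMap.sub_apply, Module.End.one_apply, polar_sub_right, polar_self,
      ← Nat.cast_smul_eq_nsmul F, Nat.cast_ofNat, h2, zero_smul, sub_zero]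
    have hs := hQC _ (himg v)
    rw [hN, LinearMap.sub_apply, Module.End.one_apply, CfsgLib.Forms.map_sub', hQe (T v), hT, ← hQe,
      polar_comm] at hs
    linear_combination -hs + Q v * h2
  have heven := CfsgLib.AltRank.even_rank M halt
  have hrank : M.rank + Module.finrank F C = d + d := by
    have h1 := LinearMap.finrank_range_add_finrank_ker M.mulVecLin
    rw [Module.finrank_fintype_fun_eq_card, Fintype.card_sum, Fintype.card_fin] at h1
    have hker : LinearMap.ker M.mulVecLin = C := by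
      ext w
      rw [LinearMap.mem_ker, Matrix.mulVecLin_apply, hC, LinearMap.mem_ker]
      constructor
      · intro hw
        refine (nondegenerate_quadPlus (F := F) d).2 _ fun v => ?_
        show polar Q v (N w) = 0
        rw [← hM, hw, dotProduct_zero]
      · intro hw
        refine dotProduct_eq_zero _ fun v => ?_
        rw [dotProduct_comm, hM, hw, polar_zero_right]
    rw [hker] at h1
    rw [Matrix.rank]
    exact h1
  rw [show M.rank = d by omega] at heven
  exact Nat.not_even_iff_odd.2 hd heven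

end CfsgLib.NonsingPoint
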