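import Cfsg.Agent.NonsingPoint.Basic
import Cfsg.Agent.Forms.EvenType

set_option autoImplicit false

/-! The minus-type orthogonal group in characteristic two and nonsingular points. -/

namespace CfsgLib.NonsingPoint

open Matrix QuadraticMap CfsgLib.Forms

variable {F : Type*} [Field F]

/-- Lines spanned by vectors of non-zero value. -/
theorem card_lines [Fintype F] {V : Type*} [AddCommGroup V] [Module F V] [Finite V] (Q : QuadraticForm F V) :
    Nat.card {W : Submodule F V // Module.finrank F ↥W = 1 ∧ ∃ v ∈ W, Q v ≠ 0} *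
      (Fintype.card F - 1) = Nat.card {v : V // Q v ≠ 0} := by
  classical
  set P := {W : Submodule F V // Module.finrank F ↥W = 1 ∧ ∃ v ∈ W, Q v ≠ 0}
  let toP : {v : V // Q v ≠ 0} → P := fun v =>
    ⟨Submodule.span F {v.1}, finrank_span_singleton (fun h => v.2 (by rw [h, QuadraticMap.map_zero])),
      v.1, Submodule.mem_span_singleton_self _, v.2⟩
  have hfib : ∀ W : P, Nat.card {v // toP v = W} = Fintype.card F - 1 := by
    rintro ⟨W, hW, v0, hv0, hQ⟩
    have hv00 : v0 ≠ 0 := fun h => hQ (by rw [h, QuadraticMap.map_zero])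
    have hspan : ∀ v ∈ W, ∃ c : F, c • v0 = v := fun v hv => by
      obtain ⟨c, hc⟩ := (finrank_eq_one_iff_of_nonzero' (⟨v0, hv0⟩ : W)
        (fun h => hv00 (congrArg Subtype.val h))).1 hW ⟨v, hv⟩
      exact ⟨c, congrArg Subtype.val hc⟩
    let g : {c : F // c ≠ 0} → {v // toP v = ⟨W, hW, v0, hv0, hQ⟩} := fun c =>
      ⟨⟨c.1 • v0, by rw [QuadraticMap.map_smul, smul_eq_mul]; exact mul_ne_zero (mul_ne_zero c.2 c.2) hQ⟩,
        Subtype.ext (by
          show Submodule.span F {c.1 • v0} = W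
          rw [Submodule.span_singleton_smul_eq (isUnit_iff_ne_zero.2 c.2)]
          refine le_antisymm ((Submodule.span_singleton_le_iff_mem _ _).2 hv0) fun v hv => ?_
          obtain ⟨a, rfl⟩ := hspan v hv
          exact Submodule.smul_mem _ _ (Submodule.mem_span_singleton_self v0))⟩
    have hg : Function.Bijective g := by
      constructor
      · intro a b h
        refine Subtype.ext (smul_left_injective F hv00 ?_)
        exact congrArg (fun t : {v // toP v = (⟨W, hW, v0, hv0, hQ⟩ : P)} => (t.1 : V)) h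
      · rintro ⟨⟨v, hv⟩, hvW⟩
        have : v ∈ W := (congrArg Subtype.val hvW).le (Submodule.mem_span_singleton_self v)
        obtain ⟨c, rfl⟩ := hspan v this
        exact ⟨⟨c, fun h => hv (by rw [h, zero_smul, QuadraticMap.map_zero])⟩, rfl⟩
    rw [← Nat.card_congr (Equiv.ofBijective g hg), Nat.card_eq_fintype_card, Fintype.card_subtype_compl,
      Fintype.card_subtype_eq]
  haveI : Fintype P := Fintype.ofFinite P
  rw [← Nat.card_congr (Equiv.sigmaFiberEquiv toP), Nat.card_sigma,
    Finset.sum_congr rfl fun W _ => hfib W, Finset.sum_const, Finset.card_univ,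
    Nat.card_eq_fintype_card, smul_eq_mul]

/-- The number of nonsingular points of the minus-type space. -/
theorem card_points_minus [Fintype F] (m : ℕ) (a b : F)
    (hab : ∀ x y : F, x ^ 2 + a * x * y + b * y ^ 2 = 0 → x = 0 ∧ y = 0) :
    Nat.card {W : Submodule F ((Fin m ⊕ Fin m) ⊕ Fin 2 → F) //
        Module.finrank F ↥W = 1 ∧ ∃ v ∈ W, Cfsg.quadFormMinus m F a b v ≠ 0} =
      Fintype.card F ^ m * (Fintype.card F ^ (m + 1) + 1) := by
  classical
  set q := Fintype.card F with hqdef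
  have hq : 2 ≤ q := Fintype.one_lt_card
  let U := Fin m ⊕ Fin m → F
  let g : (Fin 2 → F) → F := fun w => w 0 ^ 2 + a * w 0 * w 1 + b * w 1 ^ 2
  -- all fibres over non-zero values have the same size
  set f1 := Nat.card {v : U // Cfsg.quadFormPlus m F v = 1} with hf1
  have hfib : ∀ c : F, c ≠ 0 → Nat.card {v : U // Cfsg.quadFormPlus m F v = c} = f1 := by
    intro c hc
    let sc : U ≃ U :=
      { toFun := fun v => Sum.elim (fun i => c * v (Sum.inl i)) (fun i => v (Sum.inr i))
        invFun := fun v => Sum.elim (fun i => c⁻¹ * v (Sum.inl i)) (fun i => v (Sum.inr i))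
        left_inv := fun v => by funext i; rcases i with i | i <;> simp [hc]
        right_inv := fun v => by funext i; rcases i with i | i <;> simp [hc] }
    refine (Nat.card_congr (sc.subtypeEquiv fun v => ?_)).symm
    have : Cfsg.quadFormPlus m F (sc v) = c * Cfsg.quadFormPlus m F v := by
      simp only [Cfsg.quadFormPlus, sc, Equiv.coe_fn_mk, Sum.elim_inl, Sum.elim_inr, Finset.mul_sum]
      exact Finset.sum_congr rfl fun i _ => by ring
    rw [this, mul_eq_left₀ hc]
  have hU : Nat.card U = q ^ (m + m) := by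
    rw [Nat.card_fun, Nat.card_sum, Nat.card_fin, Nat.card_eq_fintype_card]
  have hcompl : ∀ c : F, Nat.card {v : U // Cfsg.quadFormPlus m F v = c} +
      Nat.card {v : U // ¬ Cfsg.quadFormPlus m F v = c} = q ^ (m + m) := fun c => by
    rw [← Nat.card_sum, Nat.card_congr (Equiv.sumCompl _), hU]
  have hA : Nat.card {v : U // Cfsg.quadFormPlus m F v ≠ 0} = (q - 1) * f1 := by
    rw [← Nat.card_congr (Equiv.sigmaFiberEquiv
      (fun v : {v : U // Cfsg.quadFormPlus m F v ≠ 0} => (⟨_, v.2⟩ : {c : F // c ≠ 0}))),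
      Nat.card_sigma, Finset.sum_congr rfl fun c _ => ((Nat.card_congr
        { toFun := fun v => ⟨v.1.1, congrArg Subtype.val v.2⟩
          invFun := fun v => ⟨⟨v.1, v.2.symm ▸ c.2⟩, Subtype.ext v.2⟩
          left_inv := fun v => rfl
          right_inv := fun v => rfl }).trans (hfib c.1 c.2)),
      Finset.sum_const, Finset.card_univ, smul_eq_mul, Fintype.card_subtype_compl,
      Fintype.card_subtype_eq]
  -- split off the anisotropic plane
  let e : {v : (Fin m ⊕ Fin m) ⊕ Fin 2 → F // Cfsg.quadFormMinus m F a b v ≠ 0} ≃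
      Σ w : Fin 2 → F, {v : U // ¬ Cfsg.quadFormPlus m F v = -g w} :=
    { toFun := fun v => ⟨v.1 ∘ Sum.inr, v.1 ∘ Sum.inl, fun h => v.2 (by
        show Cfsg.quadFormPlus m F (v.1 ∘ Sum.inl) + g (v.1 ∘ Sum.inr) = 0
        rw [h, neg_add_cancel])⟩
      invFun := fun p => ⟨Sum.elim p.2.1 p.1, fun h => p.2.2 (eq_neg_of_add_eq_zero_left h)⟩
      left_inv := fun v => Subtype.ext (Sum.elim_comp_inl_inr v.1)
      right_inv := fun p => rfl }
  have hV : Nat.card {v : (Fin m ⊕ Fin m) ⊕ Fin 2 → F // Cfsg.quadFormMinus m F a b v ≠ 0} =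
      (q - 1) * f1 + (q ^ 2 - 1) * (q ^ (m + m) - f1) := by
    rw [Nat.card_congr e, Nat.card_sigma, ← Finset.add_sum_erase _ _ (Finset.mem_univ 0)]
    congr 1
    · rw [← hA, show -g 0 = 0 by simp [g]]
    · rw [Finset.sum_congr rfl fun w hw => ?_, Finset.sum_const, smul_eq_mul]
      · congr 1
        rw [Finset.card_erase_of_mem (Finset.mem_univ _), Finset.card_univ, Fintype.card_fun,
          Fintype.card_fin]
      · have hg : g w ≠ 0 := fun h => by
          obtain ⟨h0, h1⟩ := hab _ _ h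
          exact Finset.ne_of_mem_erase hw (funext fun i => by fin_cases i <;> assumption)
        have := hcompl (-g w)
        rw [hfib _ (neg_ne_zero.2 hg)] at this
        omega
  have hB : f1 * q = (q ^ m - 1) * q ^ m := by
    have := card_nonsingular (F := F) (d := m)
    rw [hA, ← hqdef] at this
    refine Nat.eq_of_mul_eq_mul_left (show 0 < q - 1 by omega) ?_
    calc (q - 1) * (f1 * q) = (q - 1) * f1 * q := by ring
      _ = (q ^ m - 1) * (q ^ m * (q - 1)) := this
      _ = _ := by ring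
  have hle : f1 ≤ q ^ (m + m) := by
    have := hcompl 1
    omega
  have hlines := card_lines (quadMinus F m a b)
  rw [coe_quadMinus, hV, ← hqdef] at hlines
  refine Nat.eq_of_mul_eq_mul_right (show 0 < q - 1 by omega) ?_
  rw [hlines]
  have h1 : 1 ≤ q ^ m := Nat.one_le_pow _ _ (by omega)
  have h2 : 1 ≤ q ^ 2 := Nat.one_le_pow _ _ (by omega)
  zify [hle, h1, h2, show 1 ≤ q by omega] at hB ⊢
  linear_combination (1 - (q : ℤ)) * hB

/-- A square of an isometry of the minus-type form lies in `Ω` in characteristic two. -/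
theorem sq_mem_omega_minus [Finite F] (m : ℕ) (hm : 2 ≤ m) (h2 : ringChar F = 2) {a b : F}
    (hab : ∀ x y : F, x ^ 2 + a * x * y + b * y ^ 2 = 0 → x = 0 ∧ y = 0)
    {g : GL ((Fin m ⊕ Fin m) ⊕ Fin 2) F}
    (hg : g ∈ Cfsg.isometryGroup F (Cfsg.quadFormMinus m F a b)) :
    g * g ∈ Cfsg.Geo.omegaGL (Cfsg.quadFormMinus m F a b) := by
  classical
  have key : ∀ g ∈ Cfsg.isometryGroup F ⇑(quadMinus F m a b),
      g * g ∈ Cfsg.Geo.omegaGL ⇑(quadMinus F m a b) := by
    intro g hg
    have hQ := nondegenerate_quadMinus (F := F) m hab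
    have hh : Nat.card F ≠ 2 ∨ Fintype.card ((Fin m ⊕ Fin m) ⊕ Fin 2) ≠ 4 := Or.inr (by simp; omega)
    obtain ⟨l, hl⟩ := exists_list hQ hh ⟨g, hg⟩
    refine mem_omegaGL.2 ⟨⟨g, hg⟩ * ⟨g, hg⟩, (mem_Omega_of_list hQ hh (l := l ++ l) ?_).2
      ⟨by rw [List.length_append]; exact Even.add_self _, FiniteField.isSquare_of_char_two h2 _⟩, rfl⟩
    rw [map_mul, hl]
    exact Subtype.ext (LinearEquiv.ext fun v => by
      show reflProd _ l (reflProd _ l v) = reflProd _ (l ++ l) v
      rw [reflProd_append]; rfl)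
  rw [coe_quadMinus] at key
  exact key g hg

/-- A fixed-point-free isometry of prime order `r ∣ q^d + 1` of a minus-type space. -/
theorem exists_derangement_minus [Fintype F] [CharP F 2] (d : ℕ) (hd : 1 ≤ d) {a b : F}
    (hab : ∀ x y : F, x ^ 2 + a * x * y + b * y ^ 2 = 0 → x = 0 ∧ y = 0) (r : ℕ) [Fact r.Prime]
    (hr : r ∣ Fintype.card F ^ d + 1) :
    ∃ g : GL ((Fin (d - 1) ⊕ Fin (d - 1)) ⊕ Fin 2) F,
      g ∈ Cfsg.isometryGroup F (Cfsg.quadFormMinus (d - 1) F a b) ∧ g ^ r = 1 ∧
      ∀ v, (g : Matrix ((Fin (d - 1) ⊕ Fin (d - 1)) ⊕ Fin 2) ((Fin (d - 1) ⊕ Fin (d - 1)) ⊕ Fin 2) F) *ᵥ v = v →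
        v = 0 := by
  classical
  haveI : NeZero (2 * d) := ⟨by omega⟩
  set q := Fintype.card F with hqdef
  have hq : 2 ≤ q := Fintype.one_lt_card
  let K := FiniteField.Extension F 2 (2 * d)
  haveI : Fintype K := Fintype.ofFinite K
  haveI : Fintype Kˣ := Fintype.ofFinite _
  have hKcard : Nat.card K = q ^ (2 * d) := by
    rw [FiniteField.natCard_extension, Nat.card_eq_fintype_card]
  have hK2 : (2 : K) = 0 := by
    have h : (2 : F) = 0 := by exact_mod_cast CharP.cast_eq_zero F 2
    rw [show (2 : K) = algebraMap F K 2 from (map_ofNat _ 2).symm, h, map_zero]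
  -- the involutory automorphism
  let σ : K ≃ₐ[F] K := (FiniteField.Extension.frob F 2 (2 * d)) ^ d
  have hσ : ∀ x : K, σ x = x ^ q ^ d := by
    intro x
    have : ∀ n : ℕ, ((FiniteField.Extension.frob F 2 (2 * d)) ^ n) x = x ^ q ^ n := by
      intro n
      induction n with
      | zero => simp
      | succ n ih =>
        rw [pow_succ', AlgEquiv.mul_apply, ih, FiniteField.Extension.frob_apply, ← pow_mul,
          Nat.card_eq_fintype_card, ← pow_succ]
    exact this d
  have hpowK : ∀ x : K, x ^ (q ^ d * q ^ d) = x := fun x => by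
    rw [← pow_add, ← two_mul, ← hKcard, Nat.card_eq_fintype_card, FiniteField.pow_card]
  have hσσ : ∀ x : K, σ (σ x) = x := fun x => by rw [hσ, hσ, ← pow_mul, hpowK]
  obtain ⟨θ, hθ⟩ : ∃ θ : K, θ + σ θ = 1 := by
    obtain ⟨w, hw⟩ := IsCyclic.exists_generator (α := Kˣ)
    have ho := orderOf_eq_card_of_forall_mem_zpowers hw
    rw [Nat.card_units, hKcard] at ho
    have hne : σ (w : K) ≠ w := by
      intro h
      rw [hσ] at h
      have h' : w ^ q ^ d = w := Units.ext (by simpa using h)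
      have h1 : 1 ≤ q ^ d := Nat.one_le_pow _ _ (by omega)
      have h'' : w ^ (q ^ d - 1) = 1 := by
        rw [← Nat.sub_add_cancel h1, pow_succ] at h'
        exact mul_eq_right.1 h'
      have h2 := orderOf_dvd_of_pow_eq_one h''
      rw [ho] at h2
      have h3 : 2 ≤ q ^ d := le_trans hq (Nat.le_self_pow (by omega) q)
      have h4 := Nat.le_of_dvd (by omega) h2
      have : q ^ d < q ^ (2 * d) := Nat.pow_lt_pow_right (by omega) (by omega)
      omega
    set u := (w : K) + σ w with hu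
    have hu0 : u ≠ 0 := fun h => hne (by
      linear_combination h - (w : K) * hK2)
    refine ⟨(w : K) / u, ?_⟩
    have hσu : σ u = u := by rw [hu, map_add, hσσ, add_comm]
    rw [map_div₀, hσu, ← add_div, ← hu, div_self hu0]
  -- the form
  let B : LinearMap.BilinForm F K :=
    LinearMap.mk₂ F (fun x y => Algebra.trace F K (θ * x * σ y))
      (fun x x' y => by rw [← map_add]; congr 1; ring)
      (fun c x y => by rw [← map_smul]; congr 1; rw [Algebra.smul_def, Algebra.smul_def]; ring)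
      (fun x y y' => by rw [← map_add, map_add]; congr 1; ring)
      (fun c x y => by rw [← map_smul, map_smul]; congr 1; rw [Algebra.smul_def, Algebra.smul_def]; ring)
  let Q : QuadraticForm F K := B.toQuadraticMap
  have hQapp : ∀ x, Q x = Algebra.trace F K (θ * x * σ x) := fun x => rfl
  have hpolar : ∀ x y, polar Q x y = Algebra.trace F K (x * σ y) := by
    intro x y
    show polar B.toQuadraticMap x y = _
    rw [LinearMap.BilinMap.polar_toQuadraticMap]
    show Algebra.trace F K (θ * x * σ y) + Algebra.trace F K (θ * y * σ x) = _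
    rw [← Algebra.trace_eq_of_algEquiv σ (θ * y * σ x), map_mul σ, map_mul σ, hσσ, ← map_add]
    congr 1
    linear_combination (x * σ y) * hθ
  have hQnd : (polarBilin Q).Nondegenerate := by
    refine nondegenerate_iff.2 fun x hx => ?_
    refine (traceForm_nondegenerate F K).1 x fun y => ?_
    have := hx (σ y)
    rw [hpolar, hσσ] at this
    rwa [Algebra.traceForm_apply]
  -- norm-one elements are isometries
  have hiso : ∀ ζ : Kˣ, ζ ^ (q ^ d + 1) = 1 → ∀ x, Q ((ζ : K) * x) = Q x := by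
    intro ζ hζ x
    have h : (ζ : K) * σ (ζ : K) = 1 := by
      rw [hσ, ← pow_succ', ← Units.val_pow_eq_pow_val, hζ, Units.val_one]
    rw [hQapp, hQapp, map_mul σ]
    congr 1
    linear_combination (θ * x * σ x) * h
  have hfin : Module.finrank F K = 2 * d := FiniteField.finrank_extension F 2 (2 * d)
  -- the form is not hyperbolic
  have hnots : ¬ ∃ S : Submodule F K, (∀ v ∈ S, Q v = 0) ∧ d ≤ Module.finrank F S := by
    rintro ⟨S, hS, hSd⟩
    obtain ⟨g, hg⟩ := exists_isometry_plus hd hfin hQnd S hS hSd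
    have h1 := card_nonsingular (F := F) (d := d)
    rw [← Nat.card_congr (g.toEquiv.subtypeEquiv (p := fun v => Q v ≠ 0)
      (q := fun v => Cfsg.quadFormPlus d F v ≠ 0) fun v => by rw [LinearEquiv.coe_toEquiv, hg]),
      ← hqdef] at h1
    -- the norm-one elements act semiregularly on vectors of non-zero value
    let μ : Subgroup Kˣ := (powMonoidHom (q ^ d + 1) : Kˣ →* Kˣ).ker
    have hμ : Nat.card μ = q ^ d + 1 := by
      rw [IsCyclic.card_powMonoidHom_ker, Nat.card_units, hKcard]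
      refine Nat.gcd_eq_right ⟨q ^ d - 1, ?_⟩
      rw [← Nat.sq_sub_sq, ← pow_mul, one_pow, mul_comm d 2]
    let T : Set Kˣ := {u | Q (u : K) ≠ 0}
    have hT : T = QuotientGroup.mk ⁻¹' (QuotientGroup.mk '' T : Set (Kˣ ⧸ μ)) := by
      refine Set.Subset.antisymm (Set.subset_preimage_image _ _) ?_
      rintro u ⟨v, hv, hvu⟩
      have hm : v⁻¹ * u ∈ μ := QuotientGroup.eq.1 hvu
      show Q (u : K) ≠ 0
      rw [show (u : K) = ((v⁻¹ * u : Kˣ) : K) * v by
        rw [← Units.val_mul, mul_comm v⁻¹ u, inv_mul_cancel_right],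
        hiso _ (MonoidHom.mem_ker.1 hm)]
      exact hv
    have hdvd : q ^ d + 1 ∣ Nat.card {v : K // Q v ≠ 0} := by
      have e : {v : K // Q v ≠ 0} ≃ T :=
        { toFun := fun v => ⟨Units.mk0 v.1 (fun h => v.2 (by rw [h, QuadraticMap.map_zero])), v.2⟩
          invFun := fun u => ⟨(u.1 : K), u.2⟩
          left_inv := fun v => rfl
          right_inv := fun u => Subtype.ext (Units.ext rfl) }
      rw [Nat.card_congr e, hT,
        Nat.card_congr (QuotientGroup.preimageMkEquivSubgroupProdSet μ _), Nat.card_prod, hμ]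
      exact dvd_mul_right _ _
    have h2 : q ^ d + 1 ∣ (q ^ d - 1) * (q ^ d * (q - 1)) := h1 ▸ hdvd.mul_right q
    have hodd : Odd (q ^ d + 1) := by
      obtain ⟨n, -, hn⟩ := FiniteField.card F 2
      rw [hqdef, hn]
      refine Even.add_one ((Nat.even_pow.2 ⟨even_two, n.pos.ne'⟩).pow_of_ne_zero (by omega))
    have hc1 : (q ^ d + 1).Coprime (q ^ d) := by simp
    have hc2 : (q ^ d + 1).Coprime (q ^ d - 1) := by
      have h1' : 1 ≤ q ^ d := Nat.one_le_pow _ _ (by omega)
      have h3 : (q ^ d - 1) + 2 = q ^ d + 1 := by omega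
      refine Nat.coprime_of_dvd' fun k hk hk1 hk2 => ?_
      have h4 : k ∣ 2 := (Nat.dvd_add_right hk2).1 (h3.symm ▸ hk1)
      obtain rfl := (Nat.prime_dvd_prime_iff_eq hk Nat.prime_two).1 h4
      exact absurd (even_iff_two_dvd.2 hk1) (Nat.not_even_iff_odd.2 hodd)
    have h5 := Nat.le_of_dvd (by omega) (hc1.dvd_of_dvd_mul_left (hc2.dvd_of_dvd_mul_left h2))
    have : q ≤ q ^ d := Nat.le_self_pow (by omega) q
    omega
  obtain ⟨g, hg⟩ := exists_isometry_minus hd hfin hQnd hnots hab
  obtain ⟨ζ, hζ⟩ := exists_prime_orderOf_dvd_card' (G := Kˣ) r (by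
    rw [Nat.card_units, hKcard]
    refine hr.trans ⟨q ^ d - 1, ?_⟩
    rw [← Nat.sq_sub_sq, ← pow_mul, one_pow, mul_comm d 2])
  have hζn : ζ ^ (q ^ d + 1) = 1 := orderOf_dvd_iff_pow_eq_one.1 (hζ ▸ hr)
  have hζ1 : (ζ : K) ≠ 1 := fun h => by
    rw [show ζ = 1 from Units.ext h, orderOf_one] at hζ
    exact (Fact.out : r.Prime).ne_one hζ.symm
  let T : Kˣ →* GL ((Fin (d - 1) ⊕ Fin (d - 1)) ⊕ Fin 2) F :=
    Units.map ((LinearMap.toMatrixAlgEquiv'.toMonoidHom).comp
      (((LinearEquiv.conjAlgEquiv F g).toMonoidHom).comp (Algebra.lmul F K).toMonoidHom))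
  have hT : ∀ (u : Kˣ) v,
      (T u : Matrix ((Fin (d - 1) ⊕ Fin (d - 1)) ⊕ Fin 2) ((Fin (d - 1) ⊕ Fin (d - 1)) ⊕ Fin 2) F) *ᵥ v =
        g ((u : K) * g.symm v) := by
    intro u v
    show LinearMap.toMatrix' ((LinearEquiv.conjAlgEquiv F g) (Algebra.lmul F K (u : K))) *ᵥ v = _
    rw [← Matrix.toLin'_apply, Matrix.toLin'_toMatrix']
    simp [LinearEquiv.conjAlgEquiv_apply]
  refine ⟨T ζ, fun u _ => ?_, by rw [← map_pow, ← hζ, pow_orderOf_eq_one, map_one], fun v hv => ?_⟩
  · show Cfsg.quadFormMinus (d - 1) F a b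
      ((T ζ : Matrix ((Fin (d - 1) ⊕ Fin (d - 1)) ⊕ Fin 2) ((Fin (d - 1) ⊕ Fin (d - 1)) ⊕ Fin 2) F) *ᵥ u) = _
    rw [hT, hg, hiso ζ hζn, ← hg, LinearEquiv.apply_symm_apply]
  · rw [hT] at hv
    have h := congrArg g.symm hv
    rw [LinearEquiv.symm_apply_apply] at h
    by_contra hv0
    apply hζ1
    refine (mul_eq_right₀ ?_).1 h
    exact fun h0 => hv0 (g.symm.map_eq_zero_iff.1 h0)

end CfsgLib.NonsingPoint
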